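import Cfsg.Agent.Lib.Helper35.Simple2

namespace Cfsg.Agent.Lib.Helper35.J1POrd.U1

open Cfsg.Agent.Lib.Helper35

set_option maxRecDepth 100000
noncomputable section
def invL : List Nat := [1, 0]
def R : List (List Nat) := [[0, 0, 0, 0, 0, 0, 0]]
def S : List (List Nat) := []
noncomputable def tA0 : Nat := 0x5674ce44c280
noncomputable def tJ0 : Nat := 0x100420
noncomputable def tA1 : Nat := 0x7943d23512c0
noncomputable def tJ1 : Nat := 0x1040100400
noncomputable def tA2 : Nat := 0x0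
noncomputable def tJ2 : Nat := 0x0
noncomputable def tP : Nat := 0xac1a829000
def par : Par := ⟨6, 3, 63, 7, 71, 64⟩
def tabs : Nat → Nat
  | 0 => tA0
  | 1 => tA1
  | 2 => tA2
  | _ => 0
def pe (u : Nat) : Nat := Nat.land (Nat.shiftRight tP (Nat.mul u 5)) 31
def je0 (v : Nat) : Nat := Nat.land (Nat.shiftRight tJ0 (Nat.mul v 5)) 31
def stp0 (off v : Nat) : Nat := Nat.land (Nat.add (Nat.land (Nat.shiftRight tA0 (Nat.mul v 6)) 63) off) 71
theorem stp0_eq : ∀ off v, stp0 off v = step par (tabs 0) off v := fun _ _ => rfl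
attribute [irreducible] stp0
def je1 (v : Nat) : Nat := Nat.land (Nat.shiftRight tJ1 (Nat.mul v 5)) 31
def stp1 (off v : Nat) : Nat := Nat.land (Nat.add (Nat.land (Nat.shiftRight tA1 (Nat.mul v 6)) 63) off) 71
theorem stp1_eq : ∀ off v, stp1 off v = step par (tabs 1) off v := fun _ _ => rfl
attribute [irreducible] stp1
def je2 (v : Nat) : Nat := Nat.land (Nat.shiftRight tJ2 (Nat.mul v 5)) 31
def stp2 (off v : Nat) : Nat := Nat.land (Nat.add (Nat.land (Nat.shiftRight tA2 (Nat.mul v 6)) 63) off) 71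
theorem stp2_eq : ∀ off v, stp2 off v = step par (tabs 2) off v := fun _ _ => rfl
attribute [irreducible] stp2
def je : Nat → Nat → Nat
  | 0 => je0
  | 1 => je1
  | 2 => je2
  | _ => fun _ => 0
def st : Nat → Nat → Nat → Nat
  | 0 => stp0
  | 1 => stp1
  | 2 => stp2
  | _ => fun off v => step par 0 off v
theorem hst : ∀ l off v, st l off v = step par (tabs l) off v := by
  intro l off v
  rcases Nat.lt_or_ge l 3 with h | h
  · interval_cases l
    exacts [stp0_eq off v, stp1_eq off v, stp2_eq off v]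
  · obtain ⟨k, rfl⟩ : ∃ k, l = k + 3 := ⟨l - 3, by omega⟩
    rfl
def lf0_0 : Leaf (walkS st) := ⟨[1], [], 1, 0, (fun off v => (stp1 off v)), (fun _ v => v), (fun _ u _ => u), fun _ _ => rfl, fun _ _ => rfl⟩
def tree0 : RTree (walkS st) :=
  (.node 1 (.fork lf0_0) .tleaf)
def lf1_1 : Leaf (walkS st) := ⟨[0], [], 0, 0, (fun off v => (stp0 off v)), (fun _ v => v), (fun _ u _ => u), fun _ _ => rfl, fun _ _ => rfl⟩
def lf1_2 : Leaf (walkS st) := ⟨[], [0, 0, 0, 0, 0, 0], 3, 1, (fun _ v => v), (fun off v => (stp0 off (stp0 off (stp0 off (stp0 off (stp0 off (stp0 off v))))))), (fun v _ _ => v), fun _ _ => rfl, fun _ _ => rfl⟩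
def tree1 : RTree (walkS st) :=
  (.node 1 .tleaf (.node 2 (.fork lf1_1) (.fork lf1_2)))
def tree2 : RTree (walkS st) :=
  .tleaf
def trees : Nat → RTree (walkS st)
  | 0 => tree0
  | 1 => tree1
  | 2 => tree2
  | _ => .tleaf
noncomputable def fs0 (v : Nat) : Bool := chkSlot par tA0 je0 pe 2 3 4 (deadF par tA2) (fun _ => 7) tree0 0 v
noncomputable def fs1 (v : Nat) : Bool := chkSlot par tA1 je1 pe 2 3 4 (deadF par tA2) (fun _ => 7) tree1 1 v
noncomputable def fs2 (v : Nat) : Bool := chkSlot par tA2 je2 pe 2 3 4 (fun _ => true) (fun v => Nat.pred v) tree2 2 v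
def gl (k : Nat) : Bool := liveF par tA2 (Nat.succ k)

end

end Cfsg.Agent.Lib.Helper35.J1POrd.U1
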